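import Cfsg.Agent.Lib.Helper43.PO.MinusCent

set_option autoImplicit false
set_option linter.unusedSectionVars false

/-!
Minus type: the row on field automorphisms of prime order.
-/

namespace Cfsg.Agent.Lib.Helper43.PO

open Matrix QuadraticMap Module Cfsg.Agent.Lib.Helper13.OOut Cfsg.Agent.Lib.Helper43.PA
  Cfsg.Agent.Lib.Helper44

universe u v

variable {F : Type u} [Field F]

theorem row_S2716_gen [Fintype F] {p f : ℕ} [Fact p.Prime] (hF : Fintype.card F = p ^ f)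
    (hf : 1 ≤ f) {m : ℕ} (hm : 3 ≤ m) (a b : F) (hab : Aniso a b)
    (Qf : ((Fin m ⊕ Fin m) ⊕ Fin 2 → F) → F) (hQf : Qf = ⇑(minusQF m F a b))
    (Qf' : F → F → ((Fin m ⊕ Fin m) ⊕ Fin 2 → F) → F)
    (hQf' : Qf' = fun a' b' => ⇑(minusQF m F a' b'))
    (x : MulAut (Cfsg.POmega F Qf)) (hx : FMgen Qf Qf' x) {r : ℕ} (hr : r.Prime)
    (hxr : orderOf x = r) (F₀ : Type v) [Field F₀] [Fintype F₀]
    (hF₀ : Fintype.card F₀ = p ^ (f / r))
    (Qf₀ : F₀ → F₀ → ((Fin m ⊕ Fin m) ⊕ Fin 2 → F₀) → F₀)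
    (hQf₀ : Qf₀ = fun a₀ b₀ => ⇑(minusQF m F₀ a₀ b₀)) :
    Odd r ∧ r ∣ f ∧ (∃ a₀ b₀ : F₀,
      (∀ z₁ z₂ : F₀, z₁ ^ 2 + a₀ * z₁ * z₂ + b₀ * z₂ ^ 2 = 0 → z₁ = 0 ∧ z₂ = 0) ∧
      Nonempty (↥(idGen Qf (fun g => Cfsg.PreservesSingularClassesMinus m a b
        (g : Matrix ((Fin m ⊕ Fin m) ⊕ Fin 2) ((Fin m ⊕ Fin m) ⊕ Fin 2) F)) ⊓
          Subgroup.centralizer {x}) ≃*
        ↥(idGen (Qf₀ a₀ b₀) (fun g => Cfsg.PreservesSingularClassesMinus m a₀ b₀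
        (g : Matrix ((Fin m ⊕ Fin m) ⊕ Fin 2) ((Fin m ⊕ Fin m) ⊕ Fin 2) F₀))))) ∧
    Cfsg.splitClassCount (idGen Qf (fun g => Cfsg.PreservesSingularClassesMinus m a b
        (g : Matrix ((Fin m ⊕ Fin m) ⊕ Fin 2) ((Fin m ⊕ Fin m) ⊕ Fin 2) F)))
      (Cfsg.Inn (Cfsg.POmega F Qf)) x = 1 := by
  subst hQf hQf' hQf₀
  rw [inndiagMinus_eq m (by omega) hab (exists_ne_zero _ (minusQF_nondeg m F hab)
    (minus_hn m (by omega)))]
  obtain ⟨a', b', hab', σ, ha, hb, Λ, hσ, hD, hI, hΛx⟩ := minus_reduce hm hab x hx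
  have hord : orderOf σ = r := by
    rw [← orderOf_Th_fG _ (minusQF_nondeg m F hab') (minus_hn m (by omega)) σ
      (inv_minus m σ ha hb), ← hΛx, MulEquiv.orderOf_eq, hxr]
  have hrf : r ∣ f := hord ▸ orderOf_dvd_of_card hF σ
  obtain ⟨i₀, hι⟩ := exists_embedding hF hf σ F₀ (by rw [hF₀, hord])
  obtain ⟨a₀, rfl⟩ := (hι a').1 ha
  obtain ⟨b₀, rfl⟩ := (hι b').1 hb
  have hab₀ := aniso_desc a₀ b₀ hab'
  have hoddr : Odd r := by
    rcases hr.eq_two_or_odd' with h2 | h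
    · exfalso
      have hcard : Fintype.card F = Fintype.card F₀ ^ 2 := by
        rw [hF, hF₀, ← pow_mul, h2, Nat.div_mul_cancel (h2 ▸ hrf)]
      obtain ⟨θ, hθ⟩ := Cfsg.Agent.Lib.Helper45.exists_root_quadratic hcard i₀ a₀ b₀ (by
        intro z hz
        have := hab₀ z 1 (by linear_combination hz)
        exact one_ne_zero this.2)
      have := hab' θ 1 (by linear_combination hθ)
      exact one_ne_zero this.2
    · exact h
  refine ⟨hoddr, hrf, ⟨a₀, b₀, hab₀, ?_⟩, ?_⟩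
  · rw [inndiagMinus_eq m (by omega) hab₀ (exists_ne_zero _ (minusQF_nondeg m F₀ hab₀)
      (minus_hn m (by omega)))]
    obtain ⟨E1⟩ := centralizer_equiv Λ _ _ hD x
    rw [hΛx] at E1
    obtain ⟨E2⟩ := minus_cent_equiv m (by omega) σ hι a₀ b₀ hab'
    exact ⟨E1.trans E2⟩
  · have h1 := splitClassCount_equiv Λ _ _ _ _ hD hI x
    rw [hΛx] at h1
    have h2 := minus_count m (by omega) σ hι a₀ b₀ hab' (hord ▸ hoddr)
    exact h1.symm.trans h2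

end Cfsg.Agent.Lib.Helper43.PO
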